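import Cfsg.Agent.ChevAlt.F4Check
import Cfsg.Agent.ChevGrp.OrderForm
import Cfsg.Agent.ChevGrp.Weyl.F4
import Cfsg.Agent.ChevGrp.FieldAut
import Cfsg.Agent.Chev.Rules
import Mathlib.FieldTheory.Finite.GaloisField
import Mathlib.RingTheory.RootsOfUnity.PrimitiveRoots

/-!
Alternating sections of F₄(q) (owner: helper70).
-/

set_option autoImplicit false

namespace Cfsg.Agent.ChevAlt

open Cfsg.Lie Cfsg.Agent.ChevGrp
open scoped MatrixGroups

theorem rulesF4' (F : Type*) [Field F] : Rules chevF4 F := Chev.rules_of_mem F (by simp)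

theorem card_rootKer_F4 (F : Type*) [Field F] [Finite F] : Nat.card (rootKer chevF4 F) = 1 := by
  haveI := Fintype.ofFinite F
  rw [card_rootKer_of_cert (r := 0) (fun i => [].getD i.1 0)
    (matOfList [[], [], [], []]) (matOfList [])
    (matOfList [[2, 3, 4, 2], [3, 6, 8, 4], [2, 4, 6, 3], [1, 2, 3, 2]])
    (matOfList [[], [], [], []]) (matOfList [])
    (by decide +kernel) (by decide +kernel) (by decide +kernel) (by decide +kernel)]
  simp

theorem not_dvd_index_F4 (F : Type) [Field F] [Finite F] (s : ℕ) [hs : Fact s.Prime]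
    (hq : (Nat.card F : ZMod s) = 1) (h1152 : (1152 : ZMod s) ≠ 0) :
    ¬ s ∣ (torusG (rulesF4' F)).index := by
  have hS := rulesF4' F
  obtain ⟨len, hR⟩ := hS.root
  intro hdvd
  set q : ℤ := (Nat.card F : ℤ) with hqdef
  have hq1 : q - 1 ≠ 0 := by
    have := Finite.one_lt_card (α := F)
    omega
  have h := order_eq hS (card_rootKer_F4 F) (fun len hR => WeylF4.lenPoly_mul hS hR _)
  have hd : Nat.card ↥(chevF4.diagonalSubgroup F) = (Nat.card F - 1) ^ 4 := by
    have := card_diagonal_mul_card_rootKer (D := chevF4) hS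
    rw [card_rootKer_F4 F, mul_one] at this
    exact this
  have hi := index_torusG hS hR
  rw [hd] at hi
  rw [one_mul, ← hi, show chevF4.nroots / 2 = 24 by decide +kernel, Nat.cast_mul, Nat.cast_pow,
    Nat.cast_sub (Nat.one_le_iff_ne_zero.2 (Nat.card_pos (α := F)).ne'), Nat.cast_one, ← hqdef,
    ← geom_sum_mul q 2, ← geom_sum_mul q 6, ← geom_sum_mul q 8, ← geom_sum_mul q 12] at h
  have h' : ((torusG (rulesF4' F)).index : ℤ) = q ^ 24 * ((∑ i ∈ Finset.range 2, q ^ i) * (∑ i ∈ Finset.range 6, q ^ i) *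
      (∑ i ∈ Finset.range 8, q ^ i) * (∑ i ∈ Finset.range 12, q ^ i)) := by
    refine mul_right_cancel₀ (pow_ne_zero 4 hq1) (h.trans ?_)
    ring
  have h2 := congrArg (fun z : ℤ => (z : ZMod s)) h'
  simp only [Int.cast_natCast, Int.cast_mul, Int.cast_pow, Int.cast_sum] at h2
  rw [(ZMod.natCast_eq_zero_iff (torusG (rulesF4' F)).index s).2 hdvd] at h2
  rw [hqdef, Int.cast_natCast, hq] at h2
  simp only [one_pow, Finset.sum_const, Finset.card_range, nsmul_eq_mul, mul_one, one_mul] at h2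
  refine h1152 ?_
  rw [h2]
  norm_num

theorem ne0_five : (1152 : ZMod 5) ≠ 0 := by decide

theorem ne0_seven : (1152 : ZMod 7) ≠ 0 := by decide

theorem ne0_eleven : (1152 : ZMod 11) ≠ 0 := by decide

theorem card_pow_eq_one {F : Type} [Field F] {p N : ℕ} [Fact p.Prime] {s : ℕ} [Fact s.Prime]
    (hcard : Nat.card F = p ^ N) (hps : p ≠ s) (hN : (s - 1) ∣ N) : (Nat.card F : ZMod s) = 1 := by
  obtain ⟨m, rfl⟩ := hN
  have h0 : (p : ZMod s) ≠ 0 := by
    rw [Ne, ZMod.natCast_eq_zero_iff, Nat.prime_dvd_prime_iff_eq Fact.out Fact.out]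
    exact Ne.symm hps
  rw [hcard, Nat.cast_pow, pow_mul, ZMod.pow_card_sub_one_eq_one h0, one_pow]

/-- A vector is a multiple of a normalised one. -/
theorem exists_norm {s : ℕ} [hs : Fact s.Prime] (u : Fin 4 → ℕ) (h : ∃ j, ¬ s ∣ u j) :
    ∃ i, ¬ s ∣ i ∧ (List.ofFn fun j => i * u j % s) ∈ norms s := by
  have key : ∀ j, ¬ s ∣ u j → (∀ k, k < j → s ∣ u k) → ∃ i, ¬ s ∣ i ∧
      (List.ofFn fun j => i * u j % s) ∈ norms s := by
    intro j hj hlt
    obtain ⟨i, -, hi⟩ := Nat.exists_mul_mod_eq_one_of_coprime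
      ((Nat.Prime.coprime_iff_not_dvd hs.out).2 hj).symm hs.out.one_lt
    rw [mul_comm] at hi
    refine ⟨i, fun hd => ?_, ?_⟩
    · rw [Nat.mod_eq_zero_of_dvd (hd.mul_right _)] at hi
      exact one_ne_zero hi.symm
    have hz : ∀ k, k < j → i * u k % s = 0 := fun k hk => Nat.mod_eq_zero_of_dvd ((hlt k hk).mul_left i)
    have hlt' : ∀ k, i * u k % s < s := fun k => Nat.mod_lt _ hs.out.pos
    rw [List.ofFn_succ, List.ofFn_succ, List.ofFn_succ, List.ofFn_succ, List.ofFn_zero]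
    simp only [norms, List.mem_append, List.mem_flatMap, List.mem_map, List.mem_range, List.mem_singleton]
    fin_cases j
    · exact Or.inl (Or.inl (Or.inl ⟨_, hlt' 1, _, hlt' 2, _, hlt' 3, by simp at hi ⊢; exact hi.symm⟩))
    · exact Or.inl (Or.inl (Or.inr ⟨_, hlt' 2, _, hlt' 3, by
        have := hz 0 (by decide)
        simp at hi this ⊢
        exact ⟨this.symm, hi.symm⟩⟩))
    · exact Or.inl (Or.inr ⟨_, hlt' 3, by
        have := hz 0 (by decide)
        have := hz 1 (by decide)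
        simp_all⟩)
    · exact Or.inr (by
        have := hz 0 (by decide)
        have := hz 1 (by decide)
        have := hz 2 (by decide)
        simp_all)
  classical
  obtain ⟨j, hj, hmin⟩ : ∃ j, ¬ s ∣ u j ∧ ∀ k, k < j → s ∣ u k := by
    obtain ⟨j, hj⟩ := exists_minimal_of_wellFoundedLT (fun j : Fin 4 => ¬ s ∣ u j) h
    exact ⟨j, hj.prop, fun k hk => by_contra fun hkd => absurd (hj.le_of_le hkd hk.le) (not_le.2 hk)⟩
  exact key j hj hmin

/-- Coordinates of a torus element of prime order, normalised up to a power. -/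
theorem exists_norm_coord {F : Type} [Field F] [Finite F] {len : ℕ → ℕ} (hR : RootTable chevF4 len)
    {s : ℕ} [hs : Fact s.Prime] (ζ : Fˣ) (hζ : orderOf ζ = s) {x : GL chevF4.Idx F}
    (hx : x ∈ (glSys (rulesF4' F)).Hbar) (hxo : orderOf x = s) :
    ∃ (i : ℕ) (u : Fin chevF4.rank → ℕ), ¬ s ∣ i ∧ List.ofFn u ∈ norms s ∧
      x ^ i = (glSys (rulesF4' F)).tau (rulesF4' F) hR (glSys_HMul (rulesF4' F) hR) (fun j => ζ ^ u j) := by
  obtain ⟨c, hc, hτ⟩ := exists_coord (rulesF4' F) hR (s := s)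
    (by rw [card_rootKer_F4]; exact hs.out.not_dvd_one) hx (hxo ▸ pow_orderOf_eq_one x)
  have hprim : IsPrimitiveRoot ((ζ : Fˣ) : F) s := by
    rw [IsPrimitiveRoot.coe_units_iff, ← hζ]
    exact IsPrimitiveRoot.orderOf ζ
  haveI : NeZero s := ⟨hs.out.ne_zero⟩
  have hu : ∀ j, ∃ u : ℕ, ζ ^ u = c j := fun j => by
    have h1 : ((c j : Fˣ) : F) ^ s = 1 := by
      rw [← Units.val_pow_eq_pow_val, show c j ^ s = 1 from congrFun hc j]
      rfl
    obtain ⟨u, -, hu⟩ := hprim.eq_pow_of_pow_eq_one h1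
    exact ⟨u, Units.ext (by rw [Units.val_pow_eq_pow_val, hu])⟩
  choose u hu using hu
  have hne : ∃ j, ¬ s ∣ u j := by
    by_contra hh
    push Not at hh
    have : c = 1 := funext fun j => by
      obtain ⟨t, ht⟩ := hh j
      rw [← hu j, ht, pow_mul, ← hζ, pow_orderOf_eq_one, one_pow, Pi.one_apply]
    rw [this, map_one] at hτ
    rw [← hτ, orderOf_one] at hxo
    exact hs.out.ne_one hxo.symm
  obtain ⟨i, hi, hmem⟩ := exists_norm (s := s) u hne
  refine ⟨i, fun j => i * u j % s, hi, hmem, ?_⟩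
  rw [← hτ, ← map_pow]
  congr 1
  funext j
  rw [Pi.pow_apply, ← hu j, ← pow_mul, mul_comm, ← hζ, pow_mod_orderOf]

theorem exists_orderOf {F : Type} [Field F] [Finite F] {N : ℕ} (h : N ∣ Nat.card F - 1) :
    ∃ ζ : Fˣ, orderOf ζ = N := by
  obtain ⟨g, hg⟩ := IsCyclic.exists_ofOrder_eq_natCard (α := Fˣ)
  rw [Nat.card_units] at hg
  refine ⟨g ^ ((Nat.card F - 1) / N), ?_⟩
  rw [← hg] at h ⊢
  exact orderOf_pow_orderOf_div (orderOf_pos g).ne' h

theorem dvd_card_sub_one {F : Type} [Field F] [Finite F] {s : ℕ} (h : (Nat.card F : ZMod s) = 1) :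
    s ∣ Nat.card F - 1 := by
  rw [← ZMod.natCast_eq_zero_iff, Nat.cast_sub (Nat.one_le_iff_ne_zero.2 (Nat.card_pos (α := F)).ne'), h, Nat.cast_one, sub_self]

theorem perm_lift {m r : ℕ} (h : m ≤ r) :
    ∃ f : Equiv.Perm (Fin m) →* Equiv.Perm (Fin r), Function.Injective f ∧
      ∀ e, Equiv.Perm.sign e = 1 → f e ∈ alternatingGroup (Fin r) :=
  ⟨Equiv.Perm.viaEmbeddingHom (Fin.castLEEmb h), Equiv.Perm.viaEmbeddingHom_injective _, fun e he => by
    rw [Equiv.Perm.mem_alternatingGroup]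
    show Equiv.Perm.sign (Equiv.Perm.viaEmbedding e (Fin.castLEEmb h)) = 1
    rw [Equiv.Perm.viaEmbedding, Equiv.Perm.sign_extendDomain, he]⟩

/-- In `A_r`, `r ≥ 11`, an element of order eleven is conjugate to its cube. -/
theorem eleven_cube {r : ℕ} (hr : 11 ≤ r) :
    ∃ c t : alternatingGroup (Fin r), orderOf c = 11 ∧ t * c * t⁻¹ = c ^ 3 := by
  haveI : Fact (Nat.Prime 11) := ⟨by norm_num⟩
  let c0 : Equiv.Perm (Fin 11) := ⟨fun i => i + 1, fun i => i - 1, by decide, by decide⟩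
  let t0 : Equiv.Perm (Fin 11) := ⟨fun i => 3 * i, fun i => 4 * i, by decide, by decide⟩
  obtain ⟨f, hf, hs⟩ := perm_lift hr
  refine ⟨⟨f c0, hs c0 (by decide +kernel)⟩, ⟨f t0, hs t0 (by decide +kernel)⟩, ?_, Subtype.ext ?_⟩
  · rw [← Subgroup.orderOf_coe, orderOf_injective f hf]
    exact orderOf_eq_prime (by decide +kernel) (by decide +kernel)
  · show f t0 * f c0 * (f t0)⁻¹ = f c0 ^ 3
    rw [← map_inv, ← map_mul, ← map_mul, ← map_pow]
    exact congrArg f (by decide +kernel)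

/-- In `A_r`, `r ≥ 12`, commuting elements of orders five and seven and an element squaring the first and
cubing the second. -/
theorem five_seven {r : ℕ} (hr : 12 ≤ r) :
    ∃ c c' t : alternatingGroup (Fin r), orderOf c = 5 ∧ orderOf c' = 7 ∧ Commute c c' ∧
      t * c * t⁻¹ = c ^ 2 ∧ t * c' * t⁻¹ = c' ^ 3 := by
  haveI : Fact (Nat.Prime 5) := ⟨by norm_num⟩
  haveI : Fact (Nat.Prime 7) := ⟨by norm_num⟩
  let c0 : Equiv.Perm (Fin 12) :=
    ⟨![1, 2, 3, 4, 0, 5, 6, 7, 8, 9, 10, 11], ![4, 0, 1, 2, 3, 5, 6, 7, 8, 9, 10, 11], by decide, by decide⟩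
  let d0 : Equiv.Perm (Fin 12) :=
    ⟨![0, 1, 2, 3, 4, 6, 7, 8, 9, 10, 11, 5], ![0, 1, 2, 3, 4, 11, 5, 6, 7, 8, 9, 10], by decide, by decide⟩
  let t0 : Equiv.Perm (Fin 12) :=
    ⟨![0, 2, 4, 1, 3, 5, 8, 11, 7, 10, 6, 9], ![0, 3, 1, 4, 2, 5, 10, 8, 6, 11, 9, 7], by decide, by decide⟩
  obtain ⟨f, hf, hs⟩ := perm_lift hr
  refine ⟨⟨f c0, hs c0 (by decide +kernel)⟩, ⟨f d0, hs d0 (by decide +kernel)⟩,
    ⟨f t0, hs t0 (by decide +kernel)⟩, ?_, ?_, Subtype.ext ?_, Subtype.ext ?_, Subtype.ext ?_⟩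
  · rw [← Subgroup.orderOf_coe, orderOf_injective f hf]
    exact orderOf_eq_prime (by decide +kernel) (by decide +kernel)
  · rw [← Subgroup.orderOf_coe, orderOf_injective f hf]
    exact orderOf_eq_prime (by decide +kernel) (by decide +kernel)
  · show f c0 * f d0 = f d0 * f c0
    rw [← map_mul, ← map_mul]
    exact congrArg f (by decide +kernel)
  · show f t0 * f c0 * (f t0)⁻¹ = f c0 ^ 2
    rw [← map_inv, ← map_mul, ← map_mul, ← map_pow]
    exact congrArg f (by decide +kernel)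
  · show f t0 * f d0 * (f t0)⁻¹ = f d0 ^ 3
    rw [← map_inv, ← map_mul, ← map_mul, ← map_pow]
    exact congrArg f (by decide +kernel)

/-- No `A_r`, `r ≥ 11`, when there are elements of order eleven in the torus. -/
theorem no_eleven {F : Type} [Field F] [Finite F] (h11 : (Nat.card F : ZMod 11) = 1) {r : ℕ} (hr : 11 ≤ r)
    (U : Subgroup ↥(chevF4.group F)) (ψ : ↥U →* alternatingGroup (Fin r)) (hψ : Function.Surjective ψ) : False := by
  haveI : Fact (Nat.Prime 11) := ⟨by norm_num⟩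
  have hS := rulesF4' F
  obtain ⟨len, hR⟩ := hS.root
  have hT : ¬ 11 ∣ (torusG hS).index := not_dvd_index_F4 F 11 h11 ne0_eleven
  have hG := smallAb_group hS (s := 11) hT (by rw [card_rootKer_F4]; norm_num)
  obtain ⟨c, t, hc, ht⟩ := eleven_cube hr
  obtain ⟨x, n, hx, hn⟩ := exists_conj_pow (by omega) (show chevF4.rank + 2 < r by
    have : chevF4.rank = 4 := rfl
    omega) hG U ψ hψ c t hc ht
  obtain ⟨g, hg⟩ := exists_conj_le (torusG hS) hT (isPGroup_zpowers hx)
  have hx' := Subgroup.mem_subgroupOf.1 (hg x (Subgroup.mem_zpowers x))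
  obtain ⟨ζ, hζ⟩ := exists_orderOf (dvd_card_sub_one h11)
  obtain ⟨i, u, -, hmem, hi⟩ := exists_norm_coord hR ζ hζ hx' (by
    rw [Subgroup.orderOf_coe]
    exact ((MulAut.conj g).orderOf_eq x).trans hx)
  have hconj : (g * n * g⁻¹) * (g * x * g⁻¹) ^ i * (g * n * g⁻¹)⁻¹ = ((g * x * g⁻¹) ^ i) ^ 3 := by
    rw [← conj_pow, ← pow_mul, mul_comm i 3, pow_mul]
    congr 1
    calc g * n * g⁻¹ * (g * x * g⁻¹) * (g * n * g⁻¹)⁻¹ = g * (n * x * n⁻¹) * g⁻¹ := by group
      _ = (g * x * g⁻¹) ^ 3 := by rw [hn, conj_pow]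
  have hc2 := congrArg (fun z : ↥(chevF4.group F) => (z : GL chevF4.Idx F)) hconj
  simp only [Subgroup.coe_mul, Subgroup.coe_inv, Subgroup.coe_pow] at hc2 hi
  rw [hi] at hc2
  have h := invB_of_conj hS hR (by norm_num) ζ hζ u _ hc2
  rw [← tab11_eq] at h
  have := List.all_eq_true.1 check11 _ hmem
  rw [h] at this
  exact absurd this (by simp)

/-- No `A_r`, `r ≥ 12`, when there are elements of orders five and seven in the torus. -/
theorem no_thirtyfive {F : Type} [Field F] [Finite F] (h5 : (Nat.card F : ZMod 5) = 1)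
    (h7 : (Nat.card F : ZMod 7) = 1) {r : ℕ} (hr : 12 ≤ r)
    (U : Subgroup ↥(chevF4.group F)) (ψ : ↥U →* alternatingGroup (Fin r)) (hψ : Function.Surjective ψ) : False := by
  haveI : Fact (Nat.Prime 5) := ⟨by norm_num⟩
  haveI : Fact (Nat.Prime 7) := ⟨by norm_num⟩
  have hS := rulesF4' F
  obtain ⟨len, hR⟩ := hS.root
  have hT5 : ¬ 5 ∣ (torusG hS).index := not_dvd_index_F4 F 5 h5 ne0_five
  have hT7 : ¬ 7 ∣ (torusG hS).index := not_dvd_index_F4 F 7 h7 ne0_seven
  have hG5 := smallAb_group hS (s := 5) hT5 (by rw [card_rootKer_F4]; norm_num)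
  have hG7 := smallAb_group hS (s := 7) hT7 (by rw [card_rootKer_F4]; norm_num)
  obtain ⟨c, c', t, hc, hc', hcc, ht, ht'⟩ := five_seven hr
  obtain ⟨x, y, n, hx, hy, hxy, hnx, hny⟩ := exists_conj_pow_pair (s := 5) (s' := 7) (j := 3) (by omega)
    (show chevF4.rank + 2 < r by
      have : chevF4.rank = 4 := rfl
      omega) hG5 hG7 (by norm_num) U ψ hψ c c' t hc hc' hcc ht ht'
  obtain ⟨g, hgx, hgy⟩ := exists_conj_pair (torusG hS) (torusG_comm hS) hT5 hT7 hx hy hxy
  obtain ⟨ζ, hζ⟩ := exists_orderOf (F := F) (N := 35)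
    (Nat.Coprime.mul_dvd_of_dvd_of_dvd (by norm_num : Nat.Coprime 5 7) (dvd_card_sub_one h5) (dvd_card_sub_one h7))
  have hζ5 : orderOf (ζ ^ 7) = 5 := by
    rw [orderOf_pow_of_dvd (by norm_num) (by rw [hζ]; norm_num), hζ]
  have hζ7 : orderOf (ζ ^ 5) = 7 := by
    rw [orderOf_pow_of_dvd (by norm_num) (by rw [hζ]; norm_num), hζ]
  set x' := g * x * g⁻¹ with hx'
  set y' := g * y * g⁻¹ with hy'
  set m := g * n * g⁻¹ with hm
  obtain ⟨i, u, -, humem, hi⟩ := exists_norm_coord hR (ζ ^ 7) hζ5 (Subgroup.mem_subgroupOf.1 hgx) (by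
    rw [Subgroup.orderOf_coe]
    exact ((MulAut.conj g).orderOf_eq x).trans hx)
  obtain ⟨i', v, -, hvmem, hi'⟩ := exists_norm_coord hR (ζ ^ 5) hζ7 (Subgroup.mem_subgroupOf.1 hgy) (by
    rw [Subgroup.orderOf_coe]
    exact ((MulAut.conj g).orderOf_eq y).trans hy)
  have hcx : m * x' ^ i * m⁻¹ = (x' ^ i) ^ 2 := by
    rw [← conj_pow, ← pow_mul, mul_comm i 2, pow_mul]
    congr 1
    calc m * x' * m⁻¹ = g * (n * x * n⁻¹) * g⁻¹ := by rw [hm, hx']; group
      _ = x' ^ 2 := by rw [hnx, hx', conj_pow]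
  have hcy : m * y' ^ i' * m⁻¹ = (y' ^ i') ^ 3 := by
    rw [← conj_pow, ← pow_mul, mul_comm i' 3, pow_mul]
    congr 1
    calc m * y' * m⁻¹ = g * (n * y * n⁻¹) * g⁻¹ := by rw [hm, hy']; group
      _ = y' ^ 3 := by rw [hny, hy', conj_pow]
  have hxs : (x' ^ i) ^ 5 = 1 := by
    have : x' ^ 5 = 1 := by rw [hx', conj_pow, ← hx, pow_orderOf_eq_one]; group
    rw [← pow_mul, mul_comm, pow_mul, this, one_pow]
  have hys : (y' ^ i') ^ 7 = 1 := by
    have : y' ^ 7 = 1 := by rw [hy', conj_pow, ← hy, pow_orderOf_eq_one]; group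
    rw [← pow_mul, mul_comm, pow_mul, this, one_pow]
  set τ := (glSys (rulesF4' F)).tau (rulesF4' F) hR (glSys_HMul (rulesF4' F) hR) with hτ
  have e1 : ((x' : GL chevF4.Idx F)) ^ i = τ fun j => (ζ ^ 7) ^ u j := hi
  have e2 : ((y' : GL chevF4.Idx F)) ^ i' = τ fun j => (ζ ^ 5) ^ v j := hi'
  -- the product
  have hprod : ((x' : GL chevF4.Idx F)) ^ i * (y' : GL chevF4.Idx F) ^ i' =
      τ fun j => ζ ^ ((7 * u j + 5 * v j) % 35) := by
    rw [e1, e2, ← map_mul]
    congr 1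
    funext j
    rw [Pi.mul_apply, ← pow_mul, ← pow_mul, ← pow_add, ← hζ, pow_mod_orderOf]
  have hcomm : Commute (x' ^ i) (y' ^ i') :=
    (show Commute x' y' from torusG_comm hS _ hgx _ hgy).pow_pow i i'
  have hconj : m * (x' ^ i * y' ^ i') * m⁻¹ = (x' ^ i * y' ^ i') ^ 17 := by
    rw [hcomm.mul_pow,
      show (x' ^ i) ^ 17 = (x' ^ i) ^ 2 by rw [← Nat.div_add_mod 17 5, pow_add, pow_mul, hxs, one_pow, one_mul],
      show (y' ^ i') ^ 17 = (y' ^ i') ^ 3 by rw [← Nat.div_add_mod 17 7, pow_add, pow_mul, hys, one_pow, one_mul],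
      ← hcx, ← hcy]
    group
  have hc2 := congrArg (fun z : ↥(chevF4.group F) => (z : GL chevF4.Idx F)) hconj
  simp only [Subgroup.coe_mul, Subgroup.coe_inv, Subgroup.coe_pow] at hc2
  rw [hprod] at hc2
  have h := invB_of_conj hS hR (by norm_num) ζ hζ _ _ hc2
  rw [← tab35_eq] at h
  -- the single elements
  have hcx2 := congrArg (fun z : ↥(chevF4.group F) => (z : GL chevF4.Idx F)) hcx
  have hcy2 := congrArg (fun z : ↥(chevF4.group F) => (z : GL chevF4.Idx F)) hcy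
  simp only [Subgroup.coe_mul, Subgroup.coe_inv, Subgroup.coe_pow] at hcx2 hcy2
  rw [e1] at hcx2
  rw [e2] at hcy2
  have hu := invB_of_conj hS hR (by norm_num) (ζ ^ 7) hζ5 u _ hcx2
  have hv := invB_of_conj hS hR (by norm_num) (ζ ^ 5) hζ7 v _ hcy2
  rw [← tab5_eq] at hu
  rw [← tab7_eq] at hv
  have h1 := List.all_eq_true.1 check35 _ (List.mem_filter.2 ⟨humem, hu⟩)
  have h2 := List.all_eq_true.1 h1 _ (List.mem_filter.2 ⟨hvmem, hv⟩)
  have hcomb : comb35 (List.ofFn u) (List.ofFn v) = List.ofFn fun j => (7 * u j + 5 * v j) % 35 := by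
    apply List.ext_getElem
    · simp [comb35]
    · intro a b c
      simp [comb35]
  rw [hcomb, h] at h2
  exact absurd h2 (by simp)

/-- The bound for alternating sections of F₄(q). -/
theorem alt_section_bound_F4 {F : Type*} [Field F] [Fintype F] (p : ℕ) [Fact p.Prime] [CharP F p]
    (r : ℕ) (H : Subgroup ↥(chevF4.group F)) (ψ : ↥H →* ↥(alternatingGroup (Fin r)))
    (hψ : Function.Surjective ψ) : r ≤ 10 + (if p = 11 then 1 else 0) := by
  classical
  letI := ZMod.algebra F p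
  set a := Module.finrank (ZMod p) F with ha
  have ha0 : a * 60 ≠ 0 := Nat.mul_ne_zero Module.finrank_pos.ne' (by norm_num)
  let E := GaloisField p (a * 60)
  haveI : Finite E := inferInstance
  have hcard : Nat.card E = p ^ (a * 60) := GaloisField.card p _ ha0
  have hf : Module.finrank (ZMod p) E = a * 60 := GaloisField.finrank p ha0
  obtain ⟨ι⟩ := FiniteField.nonempty_algHom_of_finrank_dvd (F := ZMod p) (K := F) (L := E)
    (by rw [hf, ← ha]; exact dvd_mul_right _ _)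
  let f : ↥(chevF4.group F) →* ↥(chevF4.group E) :=
    ((Matrix.GeneralLinearGroup.map (n := chevF4.Idx) (ι : F →+* E)).comp (chevF4.group F).subtype).codRestrict _
      fun g => map_group_le chevF4 (ι : F →+* E) ⟨(g : GL chevF4.Idx F), g.2, rfl⟩
  have hinj : Function.Injective f := fun x y h =>
    Subtype.ext (glMap_injective chevF4 (ι : F →+* E) (congrArg Subtype.val h))
  let e := H.equivMapOfInjective f hinj
  let ψ' : ↥(H.map f) →* ↥(alternatingGroup (Fin r)) := ψ.comp e.symm.toMonoidHom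
  have hψ' : Function.Surjective ψ' := hψ.comp e.symm.surjective
  by_contra hr
  have key : ∀ s : ℕ, s.Prime → p ≠ s → (s - 1) ∣ 60 → (Nat.card E : ZMod s) = 1 := fun s hs hps hd => by
    haveI := Fact.mk hs
    exact card_pow_eq_one hcard hps (hd.mul_left a)
  by_cases hp : p = 11
  · rw [if_pos hp] at hr
    exact no_thirtyfive (key 5 (by norm_num) (by omega) (by norm_num))
      (key 7 (by norm_num) (by omega) (by norm_num)) (by omega) _ ψ' hψ'
  · rw [if_neg hp] at hr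
    exact no_eleven (key 11 (by norm_num) hp (by norm_num)) (by omega) _ ψ' hψ'

end Cfsg.Agent.ChevAlt
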