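import Cfsg.Agent.H73.AltDim.Main
import Mathlib.GroupTheory.Transfer
import Mathlib.GroupTheory.Sylow

/-!
Lifting semisimple-type configurations through an alternating section, when the relevant Sylow subgroups
are abelian of small rank (owner: helper70).
-/

set_option autoImplicit false

namespace Cfsg.Agent.ChevAlt

open H73.AltDim

/-- `s`-subgroups are commutative and have at most `s ^ d` elements of order dividing `s`. -/
def SmallAb (G : Type) [Group G] (s d : ℕ) : Prop :=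
  ∀ P : Subgroup G, IsPGroup s P →
    (∀ a ∈ P, ∀ b ∈ P, a * b = b * a) ∧ Nat.card {x : G // x ∈ P ∧ x ^ s = 1} ≤ s ^ d

theorem SmallAb.subgroup {G : Type} [Group G] [Finite G] {s d : ℕ} (h : SmallAb G s d) (U : Subgroup G) :
    SmallAb ↥U s d := by
  intro P hP
  obtain ⟨h1, h2⟩ := h (P.map U.subtype) (hP.map _)
  refine ⟨fun a ha b hb => Subtype.ext ?_, le_trans ?_ h2⟩
  · exact h1 _ ⟨a, ha, rfl⟩ _ ⟨b, hb, rfl⟩
  · refine Nat.card_le_card_of_injective
      (fun x => ⟨(x.1 : G), ⟨x.1, x.2.1, rfl⟩, by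
        rw [← Subgroup.coe_pow, x.2.2]; rfl⟩) ?_
    intro a b hab
    have := congrArg Subtype.val hab
    exact Subtype.ext (Subtype.ext this)

variable {H : Type} [Group H] [Finite H] {r : ℕ}

/-- a perfect group has no central element of order `s` in an abelian Sylow `s`-subgroup -/
theorem central_eq_one {φ : H →* alternatingGroup (Fin r)} (hφ : IsMin φ) (hr : 5 ≤ r) {s : ℕ}
    [Fact s.Prime] (Q : Sylow s H) (hQ : ∀ a ∈ (Q : Subgroup H), ∀ b ∈ (Q : Subgroup H), a * b = b * a)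
    {z : H} (hz : z ∈ Subgroup.center H) (hzQ : z ∈ (Q : Subgroup H)) : z = 1 := by
  letI : CommGroup ↥(Q : Subgroup H) :=
    { (Q : Subgroup H).toGroup with mul_comm := fun a b => Subtype.ext (hQ a a.2 b b.2) }
  have key : ∀ (k : ℕ) (g₀ : H), g₀⁻¹ * z ^ k * g₀ ∈ (Q : Subgroup H) → g₀⁻¹ * z ^ k * g₀ = z ^ k := by
    intro k g₀ _
    rw [mul_assoc, ← Subgroup.mem_center_iff.1 (pow_mem hz k) g₀, inv_mul_cancel_left]
  have h1 := hφ.hom_comm_trivial hr (MonoidHom.transfer (MonoidHom.id ↥(Q : Subgroup H))) z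
  rw [MonoidHom.transfer_eq_pow _ z key] at h1
  have h2 : z ^ (Q : Subgroup H).index = 1 := congrArg Subtype.val h1
  obtain ⟨j, hj⟩ := Q.isPGroup' ⟨z, hzQ⟩
  have h3 : z ^ (s ^ j) = 1 := congrArg Subtype.val hj
  have hcop : Nat.Coprime (Q : Subgroup H).index (s ^ j) :=
    Nat.Coprime.pow_right j ((Nat.Prime.coprime_iff_not_dvd Fact.out).2 Q.not_dvd_index).symm
  have := pow_gcd_eq_one.2 ⟨h2, h3⟩
  rwa [hcop.gcd_eq_one, pow_one] at this

/-- an element centralising the elements of order `s` of an abelian `s`-group acts with `s`-power order -/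
theorem commute_pow_pow {s : ℕ} {P : Subgroup H} (hP : ∀ a ∈ P, ∀ b ∈ P, a * b = b * a) [hPn : P.Normal] {g : H}
    (hg : ∀ y ∈ P, y ^ s = 1 → g * y * g⁻¹ = y) :
    ∀ e : ℕ, ∀ y ∈ P, y ^ (s ^ (e + 1)) = 1 → (g ^ (s ^ e)) * y * (g ^ (s ^ e))⁻¹ = y := by
  intro e
  induction e with
  | zero => simpa using hg
  | succ e ih =>
    intro y hy hys
    set h := g ^ (s ^ e) with hh
    set z := h * y * h⁻¹ * y⁻¹ with hz
    have hzP : z ∈ P := mul_mem (hPn.conj_mem y hy h) (inv_mem hy)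
    have hys' : (y ^ s) ^ (s ^ (e + 1)) = 1 := by rw [← pow_mul, ← pow_succ', hys]
    have hzs : z ^ s = 1 := by
      rw [hz, (show Commute (h * y * h⁻¹) y⁻¹ from hP _ (hPn.conj_mem y hy h) _ (inv_mem hy)).mul_pow,
        conj_pow, ih _ (pow_mem hy s) hys', inv_pow, mul_inv_cancel]
    have hfix : h * z * h⁻¹ = z := by
      have : ∀ i : ℕ, g ^ i * z * (g ^ i)⁻¹ = z := by
        intro i
        induction i with
        | zero => simp
        | succ i ihi =>
          rw [pow_succ', mul_inv_rev]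
          calc g * g ^ i * z * ((g ^ i)⁻¹ * g⁻¹) = g * (g ^ i * z * (g ^ i)⁻¹) * g⁻¹ := by group
            _ = z := by rw [ihi, hg z hzP hzs]
      exact this _
    have hiter : ∀ i : ℕ, h ^ i * y * (h ^ i)⁻¹ = z ^ i * y := by
      intro i
      induction i with
      | zero => simp
      | succ i ihi =>
        rw [pow_succ' h]
        calc h * h ^ i * y * (h * h ^ i)⁻¹ = h * (h ^ i * y * (h ^ i)⁻¹) * h⁻¹ := by group
          _ = h * (z ^ i * y) * h⁻¹ := by rw [ihi]
          _ = (h * z * h⁻¹) ^ i * (h * y * h⁻¹) := by rw [conj_pow]; group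
          _ = z ^ i * (z * y) := by rw [hfix, hz, inv_mul_cancel_right]
          _ = z ^ (i + 1) * y := by rw [pow_succ]; exact (mul_assoc (z ^ i) z y).symm
    rw [pow_succ, pow_mul, ← hh, hiter, hzs, one_mul]

theorem algMat_bound {φ : H →* alternatingGroup (Fin r)} (hφ : IsMin φ) (hr : 9 ≤ r) {q d : ℕ}
    [Fact q.Prime] (τ : H →* Matrix (Fin d) (Fin d) (ZMod q)) (hker : τ.ker ≤ φ.ker) : r - 2 ≤ d := by
  let E := AlgebraicClosure (ZMod q)
  let τE : H →* Module.End E (Fin d → E) :=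
    (Matrix.toLinAlgEquiv' (R := E) (n := Fin d)).toMonoidHom.comp
      ((RingHom.mapMatrix (algebraMap (ZMod q) E)).toMonoidHom.comp τ)
  have hkE : τE.ker ≤ φ.ker := fun x hx => hker (by
    rw [MonoidHom.mem_ker] at hx ⊢
    refine Matrix.map_injective (algebraMap (ZMod q) E).injective
      ((Matrix.toLinAlgEquiv' (R := E) (n := Fin d)).injective (hx.trans ?_))
    show 1 = Matrix.toLinAlgEquiv' ((1 : Matrix (Fin d) (Fin d) (ZMod q)).map (algebraMap (ZMod q) E))
    rw [Matrix.map_one _ (map_zero _) (map_one _), map_one])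
  exact (claim_all hr d E (Fin d → E) H τE φ (Module.finrank_fin_fun E) hφ.surj hkE).1

/-- The kernel of a minimal cover of `A_r` has order prime to such primes. -/
theorem not_dvd_ker {φ : H →* alternatingGroup (Fin r)} (hφ : IsMin φ) (hr : 9 ≤ r) {s d : ℕ}
    [hs : Fact s.Prime] (hd : d + 2 < r) (hG : SmallAb H s d) : ¬ s ∣ Nat.card φ.ker := by
  classical
  intro hdvd
  let P0 : Sylow s φ.ker := default
  haveI : Group.IsNilpotent φ.ker := hφ.ker_nilpotent
  haveI hP0n : (P0 : Subgroup φ.ker).Normal :=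
    ((Group.isNilpotent_of_finite_tfae (G := ↥φ.ker)).out 0 3 rfl rfl).1 inferInstance s hs P0
  haveI hP0c : (P0 : Subgroup φ.ker).Characteristic := Sylow.characteristic_of_normal P0 hP0n
  set P : Subgroup H := (P0 : Subgroup φ.ker).map φ.ker.subtype with hPdef
  haveI hPn : P.Normal := inferInstance
  have hPp : IsPGroup s P := P0.isPGroup'.map _
  obtain ⟨hPc, hPcard⟩ := hG P hPp
  let Ω : Subgroup H :=
    { carrier := {x | x ∈ P ∧ x ^ s = 1}
      one_mem' := ⟨one_mem _, one_pow _⟩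
      mul_mem' := fun {a b} ha hb => ⟨mul_mem ha.1 hb.1, by
        rw [(show Commute a b from hPc a ha.1 b hb.1).mul_pow, ha.2, hb.2, one_mul]⟩
      inv_mem' := fun {a} ha => ⟨inv_mem ha.1, by rw [inv_pow, ha.2, inv_one]⟩ }
  have memΩ : ∀ x, x ∈ Ω ↔ x ∈ P ∧ x ^ s = 1 := fun x => Iff.rfl
  have hΩn : ∀ g : H, ∀ x ∈ Ω, g * x * g⁻¹ ∈ Ω := fun g x hx => by
    rw [memΩ] at hx ⊢
    exact ⟨hPn.conj_mem x hx.1 g, by rw [conj_pow, hx.2, mul_one, mul_inv_cancel]⟩
  letI : CommGroup Ω :=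
    { (inferInstance : Group Ω) with mul_comm := fun a b => Subtype.ext (hPc a a.2.1 b b.2.1) }
  let θ : H →* Monoid.End Ω :=
    { toFun := fun g => MonoidHom.mk' (fun x => ⟨g * (x : H) * g⁻¹, hΩn _ _ x.2⟩) fun a b => Subtype.ext (by
          show g * ((a : H) * (b : H)) * g⁻¹ = g * (a : H) * g⁻¹ * (g * (b : H) * g⁻¹)
          group)
      map_one' := MonoidHom.ext fun x => Subtype.ext (by
        show 1 * (x : H) * 1⁻¹ = (x : H)
        group)
      map_mul' := fun g h => MonoidHom.ext fun x => Subtype.ext (by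
        show g * h * (x : H) * (g * h)⁻¹ = g * (h * (x : H) * h⁻¹) * g⁻¹
        group) }
  obtain ⟨d', τ, hd', hτ⟩ := matrix_of_action s (fun a : Ω => Subtype.ext a.2.2) θ
  have hd'le : d' ≤ d := (Nat.pow_le_pow_iff_right hs.out.one_lt).1 (hd'.le.trans hPcard)
  rcases hφ.normal_cases (by omega) τ.ker with h | h
  · have := algMat_bound hφ hr τ h
    omega
  -- the elements of order `s` are central
  have hcΩ : ∀ g : H, ∀ y ∈ P, y ^ s = 1 → g * y * g⁻¹ = y := fun g y hy hys =>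
    congrArg Subtype.val (hτ g (MonoidHom.mem_ker.1 (h ▸ Subgroup.mem_top g)) ⟨y, hy, hys⟩)
  -- hence `P` is central
  obtain ⟨e, he⟩ := IsPGroup.iff_card.1 hPp
  let C : Subgroup H := Subgroup.centralizer (P : Set H)
  haveI hCn : C.Normal := inferInstance
  have hq : IsPGroup s (H ⧸ C) := by
    intro x
    obtain ⟨g, rfl⟩ := QuotientGroup.mk_surjective x
    refine ⟨e, (QuotientGroup.eq_one_iff _).2 (Subgroup.mem_centralizer_iff.2 fun y hy => ?_)⟩
    have hye : y ^ (s ^ (e + 1)) = 1 := by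
      have : y ^ (s ^ e) = 1 := by
        have := pow_card_eq_one' (x := (⟨y, hy⟩ : P))
        rw [he] at this
        exact congrArg Subtype.val this
      rw [pow_succ, pow_mul, this, one_pow]
    exact (mul_inv_eq_iff_eq_mul.1 (commute_pow_pow hPc (hcΩ g) e y hy hye)).symm
  have hC : C = ⊤ := by
    rcases hφ.normal_cases (by omega) C with hle | htop
    · exfalso
      haveI := hq.isNilpotent
      haveI : Group.IsNilpotent (alternatingGroup (Fin r)) := by
        refine Group.nilpotent_of_surjective (QuotientGroup.lift C φ hle) ?_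
        intro a
        obtain ⟨x, rfl⟩ := hφ.surj a
        exact ⟨QuotientGroup.mk x, rfl⟩
      haveI : IsSimpleGroup (alternatingGroup (Fin r)) :=
        alternatingGroup.isSimpleGroup (by rw [Nat.card_fin]; omega)
      obtain ⟨a, b, hab⟩ := hφ.exists_not_commute (r := r) (by omega)
      rcases IsSimpleGroup.eq_bot_or_eq_top_of_normal (Subgroup.center (alternatingGroup (Fin r)))
        inferInstance with hb | ht
      · haveI : Nontrivial (alternatingGroup (Fin r)) := inferInstance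
        exact Group.IsNilpotent.center_ne_bot (G := ↥(alternatingGroup (Fin r))) hb
      · exact hab (Subgroup.mem_center_iff.1 (ht ▸ Subgroup.mem_top b) a)
    · exact htop
  obtain ⟨Q, hQ⟩ := hPp.exists_le_sylow
  have hQc := (hG Q Q.isPGroup').1
  have hP1 : P = ⊥ := (Subgroup.eq_bot_iff_forall P).2 fun y hy =>
    central_eq_one hφ (by omega) Q hQc (Subgroup.mem_center_iff.2 fun g =>
      (Subgroup.mem_centralizer_iff.1 (hC ▸ Subgroup.mem_top g : g ∈ C) y hy).symm) (hQ hy)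
  have hP0 : (P0 : Subgroup φ.ker) = ⊥ := (Subgroup.map_eq_bot_iff_of_injective _ φ.ker.subtype_injective).1 hP1
  exact P0.not_dvd_index (by rwa [hP0, Subgroup.index_bot])

/-- Lifting an element of prime order inside a subgroup. -/
theorem exists_lift {A : Type*} [Group A] (φ : H →* A) {s : ℕ} [hs : Fact s.Prime]
    (hK : ¬ s ∣ Nat.card φ.ker) (C : Subgroup H) {w : H} (hw : w ∈ C) {c : A} (hwc : φ w = c) (hc : c ^ s = 1) :
    ∃ x ∈ C, x ^ s = 1 ∧ φ x = c := by
  set K := Nat.card φ.ker with hKdef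
  have hcop : Nat.Coprime K s := ((Nat.Prime.coprime_iff_not_dvd hs.out).2 hK).symm
  obtain ⟨u, -, hu⟩ := Nat.exists_mul_mod_eq_one_of_coprime hcop hs.out.one_lt
  refine ⟨w ^ (K * u), pow_mem hw _, ?_, ?_⟩
  · have hk : w ^ s ∈ φ.ker := by rw [MonoidHom.mem_ker, map_pow, hwc, hc]
    have h1 : (w ^ s) ^ K = 1 := by
      have := pow_card_eq_one' (x := (⟨w ^ s, hk⟩ : φ.ker))
      exact congrArg Subtype.val this
    rw [← pow_mul, show K * u * s = s * K * u by ring, pow_mul, pow_mul, h1, one_pow]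
  · rw [map_pow, hwc, ← pow_mod_orderOf]
    have hdvd : orderOf c ∣ s := orderOf_dvd_of_pow_eq_one hc
    rcases (Nat.dvd_prime hs.out).1 hdvd with h | h
    · rw [h, Nat.mod_one, pow_zero, orderOf_eq_one_iff.1 h]
    · rw [h, hu, pow_one]

/-- Two elements of order dividing `s` with the same image are conjugate by an element of the kernel. -/
theorem exists_conj {A : Type*} [Group A] (φ : H →* A) {s : ℕ} [hs : Fact s.Prime]
    (hK : ¬ s ∣ Nat.card φ.ker) (C : Subgroup H) {x y : H} (hx : x ∈ C) (hy : y ∈ C) (hxs : x ^ s = 1)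
    (hys : y ^ s = 1) (hxy : φ x = φ y) : ∃ l ∈ C, φ l = 1 ∧ l * x * l⁻¹ = y := by
  by_cases hx1 : φ x = 1
  · have key : ∀ z : H, φ z = 1 → z ^ s = 1 → z = 1 := fun z hz hzs => by
      by_contra hne
      refine hK ?_
      have : orderOf (⟨z, hz⟩ : φ.ker) = s := by
        rw [← Subgroup.orderOf_coe]
        exact orderOf_eq_prime hzs hne
      exact this ▸ orderOf_dvd_natCard _
    refine ⟨1, one_mem _, map_one _, ?_⟩
    rw [key x hx1 hxs, key y (hxy ▸ hx1) hys]
    group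
  -- the preimage of `⟨φ x⟩` in `C`
  set c := φ x with hc
  have hcs : orderOf c = s := orderOf_eq_prime (by rw [hc, ← map_pow, hxs, map_one]) hx1
  set M := C ⊓ (Subgroup.zpowers c).comap φ with hM
  have hxM : x ∈ M := ⟨hx, Subgroup.mem_zpowers c⟩
  have hyM : y ∈ M := ⟨hy, Subgroup.mem_comap.2 (by rw [← hxy]; exact Subgroup.mem_zpowers c)⟩
  let ψ : ↥M →* ↥(Subgroup.zpowers c) := (φ.comp M.subtype).codRestrict _ fun z => z.2.2
  have hψ : Function.Surjective ψ := fun a => by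
    obtain ⟨i, hi⟩ := Subgroup.mem_zpowers_iff.1 a.2
    exact ⟨⟨x, hxM⟩ ^ i, Subtype.ext (by
      rw [map_zpow, Subgroup.coe_zpow]
      exact hi)⟩
  have hcardM : Nat.card M = s * Nat.card ψ.ker := by
    rw [Subgroup.card_eq_card_quotient_mul_card_subgroup ψ.ker,
      Nat.card_congr (QuotientGroup.quotientKerEquivOfSurjective ψ hψ).toEquiv, Nat.card_zpowers, hcs]
  have hψK : ¬ s ∣ Nat.card ψ.ker := fun h => hK (h.trans (Subgroup.card_dvd_of_injective
    ({ toFun := fun z => ⟨(z.1 : H), congrArg Subtype.val z.2⟩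
       map_one' := rfl
       map_mul' := fun _ _ => rfl } : ψ.ker →* φ.ker)
    (fun a b h => Subtype.ext (Subtype.ext (congrArg (fun t : φ.ker => (t : H)) h)))))
  have mk : ∀ z : ↥M, (z : H) ^ s = 1 → φ z = c → ∃ P : Sylow s M, (P : Subgroup M) = Subgroup.zpowers z := by
    intro z hzs hzc
    have hzo : orderOf z = s := orderOf_eq_prime (Subtype.ext (by simpa using hzs)) (fun h => hx1 (by
      rw [← hzc, h, Subgroup.coe_one, map_one]))
    have hp : IsPGroup s (Subgroup.zpowers z) := IsPGroup.of_card (n := 1) (by rw [Nat.card_zpowers, hzo, pow_one])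
    refine ⟨hp.toSylow ?_, rfl⟩
    have hi := Subgroup.card_mul_index (Subgroup.zpowers z)
    rw [Nat.card_zpowers, hzo, hcardM] at hi
    rwa [Nat.eq_of_mul_eq_mul_left hs.out.pos hi]
  obtain ⟨P, hP⟩ := mk ⟨x, hxM⟩ hxs rfl
  obtain ⟨Q, hQ⟩ := mk ⟨y, hyM⟩ hys hxy.symm
  obtain ⟨g, hg⟩ := MulAction.exists_smul_eq M P Q
  have hmem : g * ⟨x, hxM⟩ * g⁻¹ ∈ (Q : Subgroup M) := by
    rw [← hg]
    exact ⟨⟨x, hxM⟩, hP ▸ Subgroup.mem_zpowers _, by simp⟩
  rw [hQ] at hmem
  obtain ⟨i, hi⟩ := Subgroup.mem_zpowers_iff.1 hmem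
  have hi' : y ^ i = (g : H) * x * (g : H)⁻¹ := by simpa using congrArg Subtype.val hi
  obtain ⟨j, hj⟩ := Subgroup.mem_zpowers_iff.1 g.2.2
  have hci : c ^ i = c := by
    have := congrArg φ hi'
    rw [map_zpow, ← hxy, map_mul, map_mul, map_inv, ← hj, ← hc, mul_inv_eq_of_eq_mul] at this
    · exact this
    · rw [(Commute.self_zpow c j).eq]
  have hyi : y ^ i = y := by
    have h1 : (orderOf c : ℤ) ∣ i - 1 := by
      rw [orderOf_dvd_iff_zpow_eq_one, zpow_sub, hci, zpow_one, mul_inv_cancel]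
    obtain ⟨t, ht⟩ := h1
    rw [show i = (s : ℤ) * t + 1 by rw [← hcs]; omega, zpow_add_one, zpow_mul, zpow_natCast, hys, one_zpow, one_mul]
  refine ⟨y ^ (-j) * (g : H), mul_mem (zpow_mem hy _) g.2.1, ?_, ?_⟩
  · rw [map_mul, map_zpow, ← hxy, ← hj, ← zpow_add, neg_add_cancel, zpow_zero]
  · calc y ^ (-j) * (g : H) * x * (y ^ (-j) * (g : H))⁻¹
        = y ^ (-j) * ((g : H) * x * (g : H)⁻¹) * (y ^ (-j))⁻¹ := by group
      _ = y ^ (-j) * y * (y ^ (-j))⁻¹ := by rw [← hi', hyi]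
      _ = y := by group

/-- A minimal subgroup of an alternating section. -/
theorem exists_min {G : Type} [Group G] [Finite G] {r : ℕ} (U : Subgroup G)
    (ψ : ↥U →* alternatingGroup (Fin r)) (hψ : Function.Surjective ψ) :
    ∃ (V : Subgroup ↥U), IsMin (ψ.comp V.subtype) := by
  classical
  obtain ⟨V, hV⟩ := exists_minimal_of_wellFoundedLT (fun V : Subgroup ↥U => V.map ψ = ⊤)
    ⟨⊤, Subgroup.map_top_of_surjective ψ hψ⟩
  refine ⟨V, ⟨fun a => ?_, fun W hW => ?_⟩⟩
  · have : a ∈ V.map ψ := by rw [hV.prop]; trivial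
    obtain ⟨x, hx, rfl⟩ := this
    exact ⟨⟨x, hx⟩, rfl⟩
  · have h1 : (W.map V.subtype).map ψ = ⊤ := by rw [Subgroup.map_map]; exact hW
    have h2 := hV.le_of_le h1 (Subgroup.map_subtype_le W)
    refine eq_top_iff.2 fun x _ => ?_
    obtain ⟨w, hw, e⟩ := h2 x.2
    rwa [← Subtype.ext (a1 := w) (a2 := x) e]

/-- One element: an element of prime order conjugate to its `k`-th power. -/
theorem exists_conj_pow {G : Type} [Group G] [Finite G] {r s d k : ℕ} [Fact s.Prime] (hr : 9 ≤ r)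
    (hd : d + 2 < r) (hG : SmallAb G s d) (U : Subgroup G) (ψ : ↥U →* alternatingGroup (Fin r))
    (hψ : Function.Surjective ψ) (c t : alternatingGroup (Fin r)) (hc : orderOf c = s)
    (ht : t * c * t⁻¹ = c ^ k) : ∃ x n : G, orderOf x = s ∧ n * x * n⁻¹ = x ^ k := by
  obtain ⟨V, hV⟩ := exists_min U ψ hψ
  set φ := ψ.comp V.subtype
  have hK := not_dvd_ker hV hr hd ((hG.subgroup U).subgroup V)
  have hcs : c ^ s = 1 := hc ▸ pow_orderOf_eq_one c
  obtain ⟨w, hw⟩ := hV.surj c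
  obtain ⟨m, hm⟩ := hV.surj t
  obtain ⟨x, -, hxs, hx⟩ := exists_lift φ hK ⊤ (Subgroup.mem_top w) hw hcs
  obtain ⟨l, -, -, hl⟩ := exists_conj φ hK ⊤ (Subgroup.mem_top (m * x * m⁻¹)) (Subgroup.mem_top (x ^ k))
    (by rw [conj_pow, hxs, mul_one, mul_inv_cancel]) (by rw [← pow_mul, mul_comm, pow_mul, hxs, one_pow])
    (by rw [map_mul, map_mul, map_inv, map_pow, hx, hm, ht])
  refine ⟨((x : ↥U) : G), (((l * m : ↥V) : ↥U) : G), ?_, ?_⟩
  · rw [Subgroup.orderOf_coe, Subgroup.orderOf_coe]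
    exact orderOf_eq_prime hxs (fun h => by
      rw [h, map_one] at hx
      rw [← hx, orderOf_one] at hc
      exact (Fact.out : s.Prime).ne_one hc.symm)
  · have : l * m * x * (l * m)⁻¹ = x ^ k := by rw [← hl]; group
    have := congrArg (fun z : ↥V => ((z : ↥U) : G)) this
    simpa [mul_assoc] using this

/-- Two commuting elements of different prime orders and an element acting on both by powers. -/
theorem exists_conj_pow_pair {G : Type} [Group G] [Finite G] {r s s' d k k' j : ℕ} [Fact s.Prime]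
    [Fact s'.Prime] (hr : 9 ≤ r)
    (hd : d + 2 < r) (hG : SmallAb G s d) (hG' : SmallAb G s' d) (hj : k * j % s = 1) (U : Subgroup G)
    (ψ : ↥U →* alternatingGroup (Fin r)) (hψ : Function.Surjective ψ) (c c' t : alternatingGroup (Fin r))
    (hc : orderOf c = s) (hc' : orderOf c' = s') (hcc : Commute c c')
    (ht : t * c * t⁻¹ = c ^ k) (ht' : t * c' * t⁻¹ = c' ^ k') :
    ∃ x y n : G, orderOf x = s ∧ orderOf y = s' ∧ Commute x y ∧ n * x * n⁻¹ = x ^ k ∧
      n * y * n⁻¹ = y ^ k' := by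
  obtain ⟨V, hV⟩ := exists_min U ψ hψ
  set φ := ψ.comp V.subtype
  have hK := not_dvd_ker hV hr hd ((hG.subgroup U).subgroup V)
  have hK' := not_dvd_ker hV hr hd ((hG'.subgroup U).subgroup V)
  have hcs : c ^ s = 1 := hc ▸ pow_orderOf_eq_one c
  have hcs' : c' ^ s' = 1 := hc' ▸ pow_orderOf_eq_one c'
  obtain ⟨w, hw⟩ := hV.surj c
  obtain ⟨w', hw'⟩ := hV.surj c'
  obtain ⟨m, hm⟩ := hV.surj t
  obtain ⟨x, -, hxs, hx⟩ := exists_lift φ hK ⊤ (Subgroup.mem_top w) hw hcs
  have hpow : ∀ i : ℕ, (x ^ i) ^ s = 1 := fun i => by rw [← pow_mul, mul_comm, pow_mul, hxs, one_pow]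
  -- an element of the centraliser lifting `c'`
  obtain ⟨l, -, hl1, hl⟩ := exists_conj φ hK ⊤ (Subgroup.mem_top (w' * x * w'⁻¹)) (Subgroup.mem_top x)
    (by rw [conj_pow, hxs, mul_one, mul_inv_cancel]) hxs
    (by rw [map_mul, map_mul, map_inv, hx, hw', hcc.symm.eq, mul_inv_cancel_right])
  set C := Subgroup.centralizer ({x} : Set ↥V) with hC
  have memC : ∀ z, z ∈ C ↔ Commute z x := fun z => Subgroup.mem_centralizer_singleton_iff
  have hlw : l * w' ∈ C := (memC _).2 <| mul_inv_eq_iff_eq_mul.1 (by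
    calc l * w' * x * (l * w')⁻¹ = l * (w' * x * w'⁻¹) * l⁻¹ := by group
      _ = x := hl)
  obtain ⟨y, hyC, hys, hy⟩ := exists_lift φ hK' C hlw (by rw [map_mul, hl1, hw', one_mul]) hcs'
  obtain ⟨l₁, -, hl₁1, hl₁⟩ := exists_conj φ hK ⊤ (Subgroup.mem_top (m * x * m⁻¹)) (Subgroup.mem_top (x ^ k))
    (by rw [conj_pow, hxs, mul_one, mul_inv_cancel]) (hpow k)
    (by rw [map_mul, map_mul, map_inv, map_pow, hx, hm, ht])
  set n₁ := l₁ * m with hn₁
  have hn₁x : n₁ * x * n₁⁻¹ = x ^ k := by rw [hn₁, ← hl₁]; group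
  have hxk : (x ^ k) ^ j = x := by
    rw [← pow_mul, ← Nat.div_add_mod (k * j) s, hj, pow_succ, pow_mul, hxs, one_pow, one_mul]
  have hny : n₁ * y * n₁⁻¹ ∈ C := by
    rw [memC]
    have h1 : Commute (n₁ * y * n₁⁻¹) (x ^ k) := by
      have := ((memC y).1 hyC)
      rw [← hn₁x]
      show _ = _
      calc n₁ * y * n₁⁻¹ * (n₁ * x * n₁⁻¹) = n₁ * (y * x) * n₁⁻¹ := by group
        _ = n₁ * (x * y) * n₁⁻¹ := by rw [this.eq]
        _ = _ := by group
    simpa [hxk] using h1.pow_right j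
  obtain ⟨l₂, hl₂C, hl₂1, hl₂⟩ := exists_conj φ hK' C hny (pow_mem hyC k')
    (by rw [conj_pow, hys, mul_one, mul_inv_cancel]) (by rw [← pow_mul, mul_comm, pow_mul, hys, one_pow])
    (by rw [map_mul, map_mul, map_inv, map_pow, hn₁, map_mul, hl₁1, one_mul, hy, hm, ht'])
  refine ⟨((x : ↥U) : G), ((y : ↥U) : G), (((l₂ * n₁ : ↥V) : ↥U) : G), ?_, ?_, ?_, ?_, ?_⟩
  · rw [Subgroup.orderOf_coe, Subgroup.orderOf_coe]
    exact orderOf_eq_prime hxs (fun h => by
      rw [h, map_one] at hx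
      rw [← hx, orderOf_one] at hc
      exact (Fact.out : s.Prime).ne_one hc.symm)
  · rw [Subgroup.orderOf_coe, Subgroup.orderOf_coe]
    exact orderOf_eq_prime hys (fun h => by
      rw [h, map_one] at hy
      rw [← hy, orderOf_one] at hc'
      exact (Fact.out : s'.Prime).ne_one hc'.symm)
  · exact (((memC y).1 hyC).symm.map V.subtype).map U.subtype
  · have : l₂ * n₁ * x * (l₂ * n₁)⁻¹ = x ^ k := by
      calc l₂ * n₁ * x * (l₂ * n₁)⁻¹ = l₂ * (n₁ * x * n₁⁻¹) * l₂⁻¹ := by group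
        _ = x ^ k := by rw [hn₁x, (((memC l₂).1 hl₂C).pow_right k).eq, mul_inv_cancel_right]
    have := congrArg (fun z : ↥V => ((z : ↥U) : G)) this
    simpa [mul_assoc] using this
  · have : l₂ * n₁ * y * (l₂ * n₁)⁻¹ = y ^ k' := by rw [← hl₂]; group
    have := congrArg (fun z : ↥V => ((z : ↥U) : G)) this
    simpa [mul_assoc] using this

end Cfsg.Agent.ChevAlt
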