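import Cfsg.Agent.ChevGrp.Torus
import Cfsg.Agent.ChevGrp.Order
import Cfsg.Agent.ChevAlt.Lift
import Mathlib.LinearAlgebra.Matrix.Charpoly.Basic
import Mathlib.RingTheory.RootsOfUnity.Basic

/-!
Elements of prime order of a Chevalley group in the split torus and their eigenvalue multisets
(owner: helper70).
-/

set_option autoImplicit false

namespace Cfsg.Agent.ChevAlt

open Cfsg.Lie Cfsg.Agent.ChevGrp
open scoped MatrixGroups Polynomial

/-- An `s`-subgroup is conjugate into any subgroup of index prime to `s`. -/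
theorem exists_conj_le {G : Type*} [Group G] [Finite G] {s : ℕ} [hs : Fact s.Prime] (T : Subgroup G)
    (hT : ¬ s ∣ T.index) {P : Subgroup G} (hP : IsPGroup s P) : ∃ g : G, ∀ x ∈ P, g * x * g⁻¹ ∈ T := by
  obtain ⟨S, hS⟩ := hP.exists_le_sylow
  obtain ⟨S0, hS0⟩ : ∃ S0 : Sylow s G, (S0 : Subgroup G) ≤ T := by
    let S1 : Sylow s ↥T := default
    refine ⟨(S1.isPGroup'.map T.subtype).toSylow ?_, Subgroup.map_subtype_le _⟩
    rw [Subgroup.index_map_subtype]
    exact Nat.Prime.not_dvd_mul hs.out S1.not_dvd_index hT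
  obtain ⟨g, hg⟩ := MulAction.exists_smul_eq G S S0
  exact ⟨g, fun x hx => hS0 (by rw [← hg]; exact ⟨x, hS hx, by simp⟩)⟩

/-- The subgroup generated by an element of prime order. -/
theorem isPGroup_zpowers {G : Type*} [Group G] {s : ℕ} [Fact s.Prime] {x : G} (hx : orderOf x = s) :
    IsPGroup s (Subgroup.zpowers x) :=
  IsPGroup.of_card (n := 1) (by rw [Nat.card_zpowers, hx, pow_one])

/-- Two commuting elements of prime order go together into a commutative subgroup of index prime to both. -/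
theorem exists_conj_pair {G : Type*} [Group G] [Finite G] {s s' : ℕ} [Fact s.Prime] [Fact s'.Prime]
    (T : Subgroup G) (hc : ∀ a ∈ T, ∀ b ∈ T, a * b = b * a) (hT : ¬ s ∣ T.index) (hT' : ¬ s' ∣ T.index)
    {x y : G} (hx : orderOf x = s) (hy : orderOf y = s') (hxy : Commute x y) :
    ∃ g : G, g * x * g⁻¹ ∈ T ∧ g * y * g⁻¹ ∈ T := by
  obtain ⟨g, hg⟩ := exists_conj_le T hT (isPGroup_zpowers hx)
  have hx' := hg x (Subgroup.mem_zpowers x)
  set x' := g * x * g⁻¹ with hx'def
  set C := Subgroup.centralizer ({x'} : Set G) with hC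
  have hTC : T ≤ C := fun t ht => Subgroup.mem_centralizer_singleton_iff.2 (hc t ht x' hx')
  have hy' : g * y * g⁻¹ ∈ C := Subgroup.mem_centralizer_singleton_iff.2 (by
    show g * y * g⁻¹ * x' = x' * (g * y * g⁻¹)
    rw [hx'def]
    calc g * y * g⁻¹ * (g * x * g⁻¹) = g * (y * x) * g⁻¹ := by group
      _ = g * (x * y) * g⁻¹ := by rw [hxy.eq]
      _ = _ := by group)
  have hind : ¬ s' ∣ (T.subgroupOf C).index := fun h => hT' (h.trans (by
    show T.relIndex C ∣ T.index
    exact Subgroup.relIndex_dvd_index_of_le hTC))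
  have hord : orderOf (⟨g * y * g⁻¹, hy'⟩ : C) = s' := by
    rw [← Subgroup.orderOf_coe, ← hy]
    exact (MulAut.conj g).orderOf_eq y
  obtain ⟨c, hcc⟩ := exists_conj_le (T.subgroupOf C) hind (isPGroup_zpowers hord)
  have h2 := Subgroup.mem_subgroupOf.1 (hcc _ (Subgroup.mem_zpowers _))
  refine ⟨(c : G) * g, ?_, ?_⟩
  · have : (c : G) * x' = x' * c := Subgroup.mem_centralizer_singleton_iff.1 c.2
    have e : (c : G) * g * x * ((c : G) * g)⁻¹ = x' := by
      calc (c : G) * g * x * ((c : G) * g)⁻¹ = (c : G) * x' * (c : G)⁻¹ := by rw [hx'def]; group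
        _ = x' := by rw [this, mul_inv_cancel_right]
    rw [e]
    exact hx'
  · simpa [mul_assoc] using h2

variable {D : ChevalleyDatum} {F : Type} [Field F] [Finite F]

/-- The split torus inside the Chevalley group. -/
noncomputable def torusG (hS : Rules D F) : Subgroup ↥(D.group F) := (glSys hS).Hbar.subgroupOf (D.group F)

theorem hbar_le_group (hS : Rules D F) {len : ℕ → ℕ} (hR : RootTable D len) :
    (glSys hS).Hbar ≤ D.group F := by
  rw [group_eq hS, (glSys hS).Gbar_eq hR hS]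
  exact (glSys hS).Hbar_le_Bbar.trans le_sup_left

theorem torusG_comm (hS : Rules D F) : ∀ a ∈ torusG hS, ∀ b ∈ torusG hS, a * b = b * a := by
  obtain ⟨len, hR⟩ := hS.root
  intro a ha b hb
  exact Subtype.ext ((glSys hS).Hbar_comm hS hR (glSys_HMul hS hR) _ (Subgroup.mem_subgroupOf.1 ha) _
    (Subgroup.mem_subgroupOf.1 hb))

theorem index_torusG (hS : Rules D F) {len : ℕ → ℕ} (hR : RootTable D len) :
    (torusG hS).index * Nat.card ↥(D.diagonalSubgroup F) = Nat.card ↥(D.group F) := by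
  rw [diagonalSubgroup_eq hS hR, ← Nat.card_congr (Subgroup.subgroupOfEquivOfLe (hbar_le_group hS hR)).toEquiv,
    mul_comm]
  exact Subgroup.card_mul_index _

/-- A torus element with `x ^ s = 1` has coordinates with `c ^ s = 1`. -/
theorem exists_coord (hS : Rules D F) {len : ℕ → ℕ} (hR : RootTable D len) {s : ℕ} [hs : Fact s.Prime]
    (hd : ¬ s ∣ Nat.card (rootKer D F)) {x : GL D.Idx F} (hx : x ∈ (glSys hS).Hbar) (hxs : x ^ s = 1) :
    ∃ c : Fin D.rank → Fˣ, c ^ s = 1 ∧ (glSys hS).tau hS hR (glSys_HMul hS hR) c = x := by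
  set τ := (glSys hS).tau hS hR (glSys_HMul hS hR) with hτ
  rw [← (glSys hS).tau_range hS hR (glSys_HMul hS hR)] at hx
  obtain ⟨c, rfl⟩ := hx
  set d := Nat.card (rootKer D F) with hdd
  have hk : c ^ s ∈ rootKer D F := ((glSys hS).θ_tau_eq_one_iff hS hR (glSys_HMul hS hR) _).1 (by
    rw [map_pow, ← hτ, hxs, map_one])
  have hcd : (c ^ s) ^ d = 1 := by
    have := pow_card_eq_one' (x := (⟨c ^ s, hk⟩ : rootKer D F))
    exact congrArg Subtype.val this
  obtain ⟨u, -, hu⟩ := Nat.exists_mul_mod_eq_one_of_coprime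
    ((Nat.Prime.coprime_iff_not_dvd hs.out).2 hd).symm hs.out.one_lt
  refine ⟨c ^ (d * u), ?_, ?_⟩
  · rw [← pow_mul, show d * u * s = s * d * u by ring, pow_mul, pow_mul, hcd, one_pow]
  · rw [map_pow, ← Nat.div_add_mod (d * u) s, hu, pow_succ, pow_mul, hxs, one_pow, one_mul]

theorem smallAb_group (hS : Rules D F) {s : ℕ} [hs : Fact s.Prime] (hT : ¬ s ∣ (torusG hS).index)
    (hd : ¬ s ∣ Nat.card (rootKer D F)) : SmallAb ↥(D.group F) s D.rank := by
  classical
  intro P hP
  obtain ⟨len, hR⟩ := hS.root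
  obtain ⟨g, hg⟩ := exists_conj_le (torusG hS) hT hP
  refine ⟨fun a ha b hb => ?_, ?_⟩
  · have := torusG_comm hS _ (hg a ha) _ (hg b hb)
    have e : g * (a * b) * g⁻¹ = g * (b * a) * g⁻¹ := by
      calc g * (a * b) * g⁻¹ = g * a * g⁻¹ * (g * b * g⁻¹) := by group
        _ = g * b * g⁻¹ * (g * a * g⁻¹) := this
        _ = _ := by group
    exact mul_left_cancel (mul_right_cancel e)
  · have key : ∀ x : {x : ↥(D.group F) // x ∈ P ∧ x ^ s = 1}, ∃ c : Fin D.rank → Fˣ, c ^ s = 1 ∧
        (glSys hS).tau hS hR (glSys_HMul hS hR) c = ((g * x.1 * g⁻¹ : ↥(D.group F)) : GL D.Idx F) := fun x =>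
      exists_coord hS hR hd (Subgroup.mem_subgroupOf.1 (hg x.1 x.2.1)) (by
        rw [← Subgroup.coe_pow, conj_pow, x.2.2, mul_one, mul_inv_cancel]; rfl)
    choose c hc1 hc using key
    have h1 := Nat.card_le_card_of_injective
      (fun x => fun j : Fin D.rank => (⟨c x j, (mem_rootsOfUnity _ _).2 (congrFun (hc1 x) j)⟩ : rootsOfUnity s F))
      (fun x y h => by
        have hcc : c x = c y := funext fun j => congrArg Subtype.val (congrFun h j)
        have := hc x
        rw [hcc, hc y] at this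
        exact Subtype.ext (mul_left_cancel (mul_right_cancel (Subtype.ext this.symm))))
    refine h1.trans ?_
    rw [Nat.card_fun, Nat.card_fin]
    haveI : NeZero s := ⟨hs.out.ne_zero⟩
    refine Nat.pow_le_pow_left ?_ _
    exact card_rootsOfUnity F s

/-- The exponents of the roots at a torus element, read in the table `tab`. -/
def expo (tab : List (List ℕ)) (N : ℕ) (w : List ℕ) : List ℕ :=
  tab.map fun row => (List.zipWith (· * ·) row w).sum % N

/-- The multiset of exponents is invariant under multiplication by `k` (packed). -/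
def invB (tab : List (List ℕ)) (N k : ℕ) (w : List ℕ) : Bool :=
  ((expo tab N w).map fun z => 2 ^ (6 * z)).sum == ((expo tab N w).map fun z => 2 ^ (6 * (k * z % N))).sum

/-- The table of Cartan integers modulo `N`. -/
def rootTab (D : ChevalleyDatum) (N : ℕ) : List (List ℕ) :=
  List.ofFn fun r : Fin D.nroots => List.ofFn fun j : Fin D.rank => (D.cartan j r % (N : ℤ)).toNat

theorem units_zpow_mod {M : Type*} [CommGroup M] {ζ : M} {N : ℕ} (hN : 0 < N) (hζ : ζ ^ N = 1) (w : ℕ) (a : ℤ) :
    (ζ ^ w) ^ a = ζ ^ (w * (a % (N : ℤ)).toNat) := by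
  rw [pow_mul, ← zpow_natCast (ζ ^ w) (a % (N : ℤ)).toNat,
    Int.toNat_of_nonneg (Int.emod_nonneg _ (by omega))]
  exact zpow_eq_zpow_emod' a (by rw [← pow_mul, mul_comm, pow_mul, hζ, one_pow])

theorem zipWith_ofFn {n : ℕ} (a b : Fin n → ℕ) :
    List.zipWith (· * ·) (List.ofFn a) (List.ofFn b) = List.ofFn fun j => a j * b j := by
  apply List.ext_getElem
  · simp
  · intro i h1 h2
    simp

/-- A torus element conjugate to its `k`-th power has exponent multiset invariant under `k`. -/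
theorem invB_of_conj (hS : Rules D F) {len : ℕ → ℕ} (hR : RootTable D len) {N k : ℕ} (hN : 0 < N) (ζ : Fˣ)
    (hζ : orderOf ζ = N) (w : Fin D.rank → ℕ) (n : GL D.Idx F)
    (hconj : n * (glSys hS).tau hS hR (glSys_HMul hS hR) (fun j => ζ ^ w j) * n⁻¹ =
      (glSys hS).tau hS hR (glSys_HMul hS hR) (fun j => ζ ^ w j) ^ k) :
    invB (rootTab D N) N k (List.ofFn w) = true := by
  set τ := (glSys hS).tau hS hR (glSys_HMul hS hR) with hτ
  set c : Fin D.rank → Fˣ := fun j => ζ ^ w j with hc
  have hζN : ζ ^ N = 1 := hζ ▸ pow_orderOf_eq_one ζ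
  let z : Fin D.nroots → ℕ := fun r => (∑ j : Fin D.rank, (D.cartan j r % (N : ℤ)).toNat * w j) % N
  have hmod : ∀ m : ℕ, ζ ^ (m % N) = ζ ^ m := fun m => hζ ▸ pow_mod_orderOf ζ m
  have hchar : ∀ r : Fin D.nroots, (∏ j : Fin D.rank, c j ^ D.cartan j r) = ζ ^ z r := by
    intro r
    show _ = ζ ^ (_ % N)
    rw [hmod, ← Finset.prod_pow_eq_pow_sum]
    refine Finset.prod_congr rfl fun j _ => ?_
    rw [hc, units_zpow_mod hN hζN, mul_comm]
  let e1 : D.Idx → F := Sum.elim (fun _ => (1 : F)) fun r => ((ζ ^ z r : Fˣ) : F)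
  let e2 : D.Idx → F := Sum.elim (fun _ => (1 : F)) fun r => ((ζ ^ (k * z r % N) : Fˣ) : F)
  have hm : ((τ c : GL D.Idx F) : Matrix D.Idx D.Idx F) = Matrix.diagonal e1 := by
    have := (glSys hS).mat_tau hS hR (glSys_HMul hS hR) c
    rw [glSys_mat] at this
    rw [hτ, this]
    congr 1
    funext a
    rcases a with a | a
    · rfl
    · simp only [e1, Sum.elim_inr]; rw [hchar a]
  have hm2 : ((τ c ^ k : GL D.Idx F) : Matrix D.Idx D.Idx F) = Matrix.diagonal e2 := by
    rw [Units.val_pow_eq_pow_val, hm, Matrix.diagonal_pow]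
    congr 1
    funext a
    rcases a with a | a
    · simp [e1, e2]
    · simp only [Pi.pow_apply, e1, e2, Sum.elim_inr]
      rw [← Units.val_pow_eq_pow_val, ← pow_mul, hmod, mul_comm]
  have hcp : (Matrix.diagonal e2).charpoly = (Matrix.diagonal e1).charpoly := by
    rw [← hm2, ← hconj, Units.val_mul, Units.val_mul, hm]
    rw [Matrix.coe_units_inv]
    exact Matrix.charpoly_units_conj n _
  rw [Matrix.charpoly_diagonal, Matrix.charpoly_diagonal] at hcp
  have hms : Finset.univ.val.map e2 = Finset.univ.val.map e1 := by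
    have := congrArg Polynomial.roots hcp
    rw [Finset.prod_eq_multiset_prod, Finset.prod_eq_multiset_prod] at this
    rw [show (fun i => Polynomial.X - Polynomial.C (e2 i)) = (fun a => Polynomial.X - Polynomial.C a) ∘ e2 from rfl,
      show (fun i => Polynomial.X - Polynomial.C (e1 i)) = (fun a => Polynomial.X - Polynomial.C a) ∘ e1 from rfl,
      ← Multiset.map_map, ← Multiset.map_map, Polynomial.roots_multiset_prod_X_sub_C,
      Polynomial.roots_multiset_prod_X_sub_C] at this
    exact this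
  haveI := Classical.decEq F
  let f : F → ℕ := fun a => ∑ e ∈ Finset.range N, if ((ζ ^ e : Fˣ) : F) = a then 2 ^ (6 * e) else 0
  have hf : ∀ e < N, f ((ζ ^ e : Fˣ) : F) = 2 ^ (6 * e) := by
    intro e he
    simp only [f]
    rw [Finset.sum_eq_single e (fun b hb hne => if_neg fun h => hne ?_) (fun h => absurd (Finset.mem_range.2 he) h),
      if_pos rfl]
    exact pow_injOn_Iio_orderOf (Set.mem_Iio.2 (hζ ▸ Finset.mem_range.1 hb)) (Set.mem_Iio.2 (hζ ▸ he))
      (Units.ext h)
  have hsum := congrArg (fun m => (m.map f).sum) hms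
  simp only [Multiset.map_map] at hsum
  rw [← Finset.sum_eq_multiset_sum, ← Finset.sum_eq_multiset_sum] at hsum
  simp only [Fintype.sum_sum_type, Function.comp, e1, e2, Sum.elim_inl, Sum.elim_inr] at hsum
  have h' := Nat.add_left_cancel hsum
  rw [Finset.sum_congr rfl (fun r (_ : r ∈ (Finset.univ : Finset (Fin D.nroots))) =>
      hf (k * z r % N) (Nat.mod_lt _ hN)),
    Finset.sum_congr rfl (fun r (_ : r ∈ (Finset.univ : Finset (Fin D.nroots))) =>
      hf (z r) (Nat.mod_lt _ hN))] at h'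
  have hexpo : expo (rootTab D N) N (List.ofFn w) = List.ofFn z := by
    rw [expo, rootTab, List.map_ofFn]
    congr 1
    funext r
    simp only [Function.comp]
    rw [zipWith_ofFn, List.sum_ofFn]
  rw [invB, hexpo, List.map_ofFn, List.map_ofFn, List.sum_ofFn, List.sum_ofFn, beq_iff_eq]
  exact h'.symm

end Cfsg.Agent.ChevAlt
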